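import Cfsg.Agent.CosetEnum.ON.Order

/-!
The subgroup of index 122760 of the presented O'Nan group, on the printed generators.
-/

set_option autoImplicit false

namespace CfsgLib.CosetEnum.ON

open Cfsg.Spor.ON (a b c d e f)

theorem of_eq (x : Cfsg.Spor.ON.Gen) : PresentedGroup.of x = g8 (enc x) := by
  rw [g8, letterVal_lt gen (enc_lt x)]; cases x <;> rfl

/-- The printed generators generate `Hs`. -/
theorem printed_eq :
    (Subgroup.closure ({a, b, c, d, e, f} : Set (FreeGroup Cfsg.Spor.ON.Gen))).map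
      (PresentedGroup.mk (Cfsg.Spor.coxRelators Cfsg.Spor.ON.edges ∪
        {r | r ∈ Cfsg.Spor.ON.extra})) = Hs := by
  rw [MonoidHom.map_closure]
  refine le_antisymm ((Subgroup.closure_le _).2 ?_) ((Subgroup.closure_le _).2 ?_)
  · rintro _ ⟨r, hr, rfl⟩
    simp only [Set.mem_insert_iff, Set.mem_singleton_iff] at hr
    have hof : ∀ x : Cfsg.Spor.ON.Gen, 2 ≤ enc x → PresentedGroup.of x ∈ Hs := fun x h2 => by
      rw [of_eq]
      exact Subgroup.subset_closure
        ⟨enc x - 2, by have := enc_lt x; omega, by rw [Nat.sub_add_cancel h2]⟩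
    rcases hr with rfl | rfl | rfl | rfl | rfl | rfl <;> exact hof _ (by decide)
  · rintro _ ⟨x, hx, rfl⟩
    refine Subgroup.subset_closure ⟨FreeGroup.of (dec (x + 2)), ?_, ?_⟩
    · interval_cases x <;> simp [dec, a, b, c, d, e, f]
    · show PresentedGroup.of (dec (x + 2)) = g8 (x + 2)
      rw [of_eq]
      interval_cases x <;> rfl

end CfsgLib.CosetEnum.ON
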