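import Cfsg.Agent.CosetEnum.ON.Index
import Cfsg.Agent.CosetEnum.ON.Plane.Model

/-!
The subgroup of index 122760 of the presented O'Nan group is `PSL(3, 7)` extended by 2.
-/

set_option autoImplicit false

namespace CfsgLib.CosetEnum.ON

/-- the generators paired with the dualities -/
noncomputable def pairGen (x : ℕ) : Equiv.Perm (Fin Tab.perm.n) × Equiv.Perm (Fin 114) :=
  (if x < 6 then pi (g8 (x + 2)) else 1, Plane.tau x)

theorem pairGen_inv (x : ℕ) : pairGen x = (pairGen x)⁻¹ := by
  refine Prod.ext ?_ (Plane.tau_inv x)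
  show (if x < 6 then pi (g8 (x + 2)) else 1) = (if x < 6 then pi (g8 (x + 2)) else 1)⁻¹
  split
  · rw [← map_inv, ← g8_self (by omega)]
  · rw [inv_one]

theorem gword_pairs {A B : Type*} [Group A] [Group B] (g : ℕ → A) (g' : ℕ → B) (w : List ℕ) :
    gword (fun x => (g x, g' x)) w = (gword g w, gword g' w) := by
  induction w with
  | nil => rfl
  | cons x w ih => rw [gword_cons, gword_cons, gword_cons, ih]; rfl

theorem pairGen_relators : ∀ w ∈ sixWords, gword pairGen w = 1 := by
  intro w hw
  have hlt : ∀ x ∈ w, x < 6 := by revert w; decide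
  refine (gword_pairs _ _ w).trans (Prod.ext ?_ (Plane.tau_relators w hw))
  show gword (fun x => if x < 6 then pi (g8 (x + 2)) else 1) w = 1
  rw [gword_congr _ (fun x => pi (g8 (x + 2))) (fun x hx => if_pos (hlt x hx)),
    ← gword_map pi (fun x => g8 (x + 2)) w, six_relators w hw, map_one]

/-- the group of the pairs -/
noncomputable def Pairs : Subgroup (Equiv.Perm (Fin Tab.perm.n) × Equiv.Perm (Fin 114)) :=
  Subgroup.closure {y | ∃ x < 6, pairGen x = y}

/-- the first projection -/
noncomputable def toTable : Pairs →* Equiv.Perm (Fin Tab.perm.n) :=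
  (MonoidHom.fst _ _).comp Pairs.subtype

/-- the second projection -/
noncomputable def toPlane : Pairs →* Equiv.Perm (Fin 114) :=
  (MonoidHom.snd _ _).comp Pairs.subtype

theorem toTable_range : toTable.range = Hs.map pi := by
  rw [toTable, MonoidHom.range_comp, Subgroup.range_subtype, Pairs, MonoidHom.map_closure, Hs,
    MonoidHom.map_closure]
  refine congrArg Subgroup.closure (Set.ext fun a => ?_)
  constructor
  · rintro ⟨_, ⟨x, hx, rfl⟩, rfl⟩
    exact ⟨g8 (x + 2), ⟨x, hx, rfl⟩, (if_pos hx).symm⟩
  · rintro ⟨_, ⟨x, hx, rfl⟩, rfl⟩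
    exact ⟨_, ⟨x, hx, rfl⟩, if_pos hx⟩

theorem card_pairs : Nat.card Pairs = 3753792 ∧ Function.Injective toTable := by
  have hle := card_six pairGen_inv pairGen_relators
  have hfin : Finite Pairs := Nat.finite_of_card_ne_zero hle.2
  have hr : Nat.card toTable.range = 3753792 := by
    rw [toTable_range, ← Nat.card_congr (Subgroup.equivMapOfInjective _ _ pi_injective).toEquiv,
      index_and_card_Hs.2]
  have hc : Nat.card Pairs = 3753792 :=
    le_antisymm hle.1 (hr ▸ Nat.card_le_card_of_surjective _ toTable.rangeRestrict_surjective)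
  have hb : Function.Bijective toTable.rangeRestrict :=
    (Nat.bijective_iff_surjective_and_card _).2
      ⟨toTable.rangeRestrict_surjective, by rw [hr, hc]⟩
  exact ⟨hc, fun a b hab => hb.1 (Subtype.ext hab)⟩

theorem pairs_linear : ∃ N : Subgroup Pairs, N.Normal ∧ N.index = 2 ∧
    Nonempty (N ≃* Matrix.ProjectiveSpecialLinearGroup (Fin 3) (ZMod 7)) := by
  have hfin : Finite Pairs := Nat.finite_of_card_ne_zero (by rw [card_pairs.1]; norm_num)
  have htau : ∀ x < 6, Plane.tau x ∈ toPlane.range := fun x hx =>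
    ⟨⟨pairGen x, Subgroup.subset_closure ⟨x, hx, rfl⟩⟩, rfl⟩
  set S := Plane.pslHom.range
  have hS : S ≤ toPlane.range := Plane.range_le htau
  have hcard : Nat.card S = 1876896 := by
    rw [← Nat.card_congr (MonoidHom.ofInjective Plane.pslHom_injective).toEquiv, Plane.card_psl37]
  have hR : Nat.card toPlane.range ≤ 3753792 :=
    card_pairs.1 ▸ Nat.card_le_card_of_surjective _ toPlane.rangeRestrict_surjective
  have hne : S.relIndex toPlane.range ≠ 1 := fun h =>
    Plane.tau_zero_not_mem (Subgroup.relIndex_eq_one.1 h (htau 0 (by norm_num)))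
  have hmul := Subgroup.relIndex_mul_relIndex ⊥ S toPlane.range bot_le hS
  rw [Subgroup.relIndex_bot_left, Subgroup.relIndex_bot_left, hcard] at hmul
  have hi : S.relIndex toPlane.range = 2 := by
    have h0 : S.relIndex toPlane.range ≠ 0 := fun h => by
      rw [h, mul_zero] at hmul
      exact Nat.card_pos.ne' hmul.symm
    have : 1876896 * S.relIndex toPlane.range ≤ 1876896 * 2 := by rw [hmul]; omega
    have := Nat.le_of_mul_le_mul_left this (by norm_num)
    omega
  have hinj : Function.Injective toPlane := by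
    have hb : Function.Bijective toPlane.rangeRestrict :=
      (Nat.bijective_iff_surjective_and_card _).2
        ⟨toPlane.rangeRestrict_surjective, by rw [card_pairs.1, ← hmul, hi]⟩
    exact fun a b hab => hb.1 (Subtype.ext hab)
  refine ⟨S.comap toPlane, ?_, ?_, ⟨?_⟩⟩
  · exact Subgroup.normal_of_index_eq_two (by rw [Subgroup.index_comap, hi])
  · rw [Subgroup.index_comap, hi]
  · refine ((Subgroup.equivMapOfInjective _ toPlane hinj).trans (MulEquiv.subgroupCongr ?_)).trans
      (MonoidHom.ofInjective Plane.pslHom_injective).symm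
    exact Subgroup.map_comap_eq_self hS

/-- the subgroup is the group of the pairs -/
noncomputable def pairsEquiv : Pairs ≃* Hs :=
  (MonoidHom.ofInjective card_pairs.2).trans ((MulEquiv.subgroupCongr toTable_range).trans
    (Subgroup.equivMapOfInjective Hs pi pi_injective).symm)

theorem Hs_linear : ∃ N : Subgroup Hs, N.Normal ∧ N.index = 2 ∧
    Nonempty (N ≃* Matrix.ProjectiveSpecialLinearGroup (Fin 3) (ZMod 7)) := by
  obtain ⟨N, hN, hi, ⟨e⟩⟩ := pairs_linear
  refine ⟨N.map pairsEquiv.toMonoidHom, ?_, ?_,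
    ⟨((Subgroup.equivMapOfInjective N pairsEquiv.toMonoidHom pairsEquiv.injective).symm.trans e)⟩⟩
  · exact hN.map _ pairsEquiv.surjective
  · exact (Subgroup.index_map_equiv N pairsEquiv).trans hi

end CfsgLib.CosetEnum.ON
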