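import Cfsg.Agent.CosetEnum.ON.SubPairs
import Cfsg.Agent.CosetEnum.ON.Janko.Upper
import Cfsg.Agent.CosetEnum.ON.JankoFive.Upper
import Cfsg.Agent.CosetEnum.ON.Alt5.Upper
import Cfsg.Agent.CosetEnum.ON.Mathieu.Upper
import Cfsg.Agent.CosetEnum.ON.MathieuKill.Upper

/-!
Groups with the relators of `J1` have at most 175560 elements and groups with those of `M11` at
most 7920.
-/

set_option autoImplicit false
set_option maxRecDepth 8000

namespace CfsgLib.CosetEnum.ON

variable {P : Type*} [Group P] {v : ℕ → P} (hv : ∀ x, v (iv3 x) = (v x)⁻¹)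

/-- relators and subgroup words of a certificate -/
theorem index_cert {C : CertData} {N : ℕ} (rels : List (List ℕ)) (S : List (List ℕ))
    (facts : FactsChecked C.ep C.iv C.words C.nr N) (hn : 0 < C.n) (h0 : C.node 0 = 0)
    (rows : ∀ i < C.n, checkRow C.ep C.iv N C.L C.node C.T C.tf C.n i = true)
    (hiv : C.iv = iv3) (hL : C.L = 3)
    (hw : wordsFrom iv3 rels (C.words.take C.nr) = true)
    (hs : wordsFrom iv3 S (C.words.drop C.nr) = true)
    {v : ℕ → P} (hv : ∀ x, v (iv3 x) = (v x)⁻¹) (h : ∀ w ∈ rels, gword v w = 1)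
    (K : Subgroup P) (hK : ∀ w ∈ S, gword v w ∈ K) :
    K.relIndex (Subgroup.closure {y | ∃ x < 3, v x = y}) ≤ C.n ∧
      K.relIndex (Subgroup.closure {y | ∃ x < 3, v x = y}) ≠ 0 := by
  have hrel : ∀ (k : ℕ) (w : List ℕ), C.words[k]? = some w → k < C.nr → gword v w = 1 :=
    fun k w hk hlt => gword_of_wordsFrom v iv3 hv hw h w
      (List.mem_of_getElem? (i := k) (by rw [List.getElem?_take, if_pos hlt, hk]))
  have hsub : ∀ (k : ℕ) (w : List ℕ), C.words[k]? = some w → gword v w ∈ K := by
    intro k w hk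
    by_cases hlt : k < C.nr
    · rw [hrel k w hk hlt]; exact one_mem _
    · have hm : w ∈ C.words.drop C.nr := List.mem_of_getElem? (i := k - C.nr)
        (by rw [List.getElem?_drop, show C.nr + (k - C.nr) = k by omega, hk])
      have := List.all_eq_true.1 hs w hm
      rw [Bool.or_eq_true, List.contains_iff_mem, List.contains_iff_mem] at this
      rcases this with h' | h'
      · exact hK w h'
      · have := hK _ h'
        rwa [gword_inverse v iv3 hv w, inv_mem_iff] at this
  have := relIndex_le facts hn h0 rows K v (fun x => by rw [hiv, hv]) hrel hsub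
  rwa [hL] at this

include hv

theorem card_of_index {K : Subgroup P} {m k : ℕ} (hle : K ≤ Subgroup.closure {y | ∃ x < 3, v x = y})
    (hi : K.relIndex (Subgroup.closure {y | ∃ x < 3, v x = y}) ≤ m ∧
      K.relIndex (Subgroup.closure {y | ∃ x < 3, v x = y}) ≠ 0)
    (hk : Nat.card K ≤ k ∧ Nat.card K ≠ 0) :
    Nat.card (Subgroup.closure {y | ∃ x < 3, v x = y}) ≤ k * m ∧
      Nat.card (Subgroup.closure {y | ∃ x < 3, v x = y}) ≠ 0 := by
  have e := Subgroup.relIndex_mul_relIndex ⊥ K _ bot_le hle
  rw [Subgroup.relIndex_bot_left, Subgroup.relIndex_bot_left] at e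
  rw [← e]
  exact ⟨Nat.mul_le_mul hk.1 hi.1, Nat.mul_ne_zero hk.2 hi.2⟩

omit hv in
theorem word_mem {w : List ℕ} (hw : ∀ x ∈ w, x < 3) :
    gword v w ∈ Subgroup.closure {y | ∃ x < 3, v x = y} :=
  gword_mem _ _ fun x hx => Subgroup.subset_closure ⟨x, hw x hx, rfl⟩

omit hv in
theorem gword_two (w u : List ℕ) : gword v (w ++ u) = gword v w * gword v u := by
  simp [gword]

theorem card_janko (h : ∀ w ∈ jRels, gword v w = 1) :
    Nat.card (Subgroup.closure {y | ∃ x < 3, v x = y}) ≤ 175560 ∧
      Nat.card (Subgroup.closure {y | ∃ x < 3, v x = y}) ≠ 0 := by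
  set c := gword v cW with hc
  have hfive : gword v ((List.replicate 5 ([2] ++ cW)).flatten) = 1 := by
    have hw : wordsFrom iv3 jRels JankoFive.words = true := by decide +kernel
    have hb := gword_of_wordsFrom v iv3 hv hw h
    have hk := relIndex_orbit_le (S := JankoFive.orbitWords) JankoFive.facts Nat.one_pos
      JankoFive.node_zero JankoFive.paths (⊥ : Subgroup P) v hv
      (fun k w hk _ => hb w (List.mem_of_getElem? hk))
      (fun k w hk => Subgroup.mem_bot.2 (hb w (List.mem_of_getElem? hk)))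
    rw [Subgroup.relIndex_bot_left] at hk
    have hmem : gword v ((List.replicate 5 ([2] ++ cW)).flatten) ∈
        Subgroup.closure {a | ∃ w ∈ JankoFive.orbitWords, gword v w = a} :=
      Subgroup.subset_closure ⟨_, by decide, rfl⟩
    rw [Subgroup.eq_bot_of_card_eq _ (le_antisymm hk.1 (Nat.one_le_iff_ne_zero.2 hk.2)),
      Subgroup.mem_bot] at hmem
    exact hmem
  have ha2 : v 2 * v 2 = 1 := by
    simpa [gword_cons, gword_nil] using h [2, 2] (by decide)
  have hb3 : v 0 * (v 0 * v 0) = 1 := by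
    simpa [gword_cons, gword_nil] using h [0, 0, 0] (by decide)
  set v' := abVal (v 2) c
  have hv' : ∀ x, v' (iv3 x) = (v' x)⁻¹ := abVal_inv c ha2
  have h5 : gword v' [2, 0, 2, 0, 2, 0, 2, 0, 2, 0] = 1 := by
    rw [← hfive]
    simp only [List.replicate, List.flatten_cons, List.flatten_nil, List.append_assoc,
      List.cons_append, List.nil_append, List.append_nil, gword_two, gword_cons, gword_nil,
      mul_one, ← hc]
    rfl
  have h3 : c * (c * c) = 1 := by
    have e : c = (gword v vW)⁻¹ * v 0 * gword v vW := by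
      rw [hc, show cW = vW.reverse.map iv3 ++ ([0] ++ vW) by decide, gword_two, gword_two,
        gword_inverse v iv3 hv, gword_cons, gword_nil, mul_one, mul_assoc]
    rw [e]
    calc _ = (gword v vW)⁻¹ * (v 0 * (v 0 * v 0)) * gword v vW := by group
      _ = 1 := by rw [hb3, mul_one, inv_mul_cancel]
  have hrel : ∀ w ∈ [[2, 2], [0, 0, 0], [2, 0, 2, 0, 2, 0, 2, 0, 2, 0]], gword v' w = 1 := by
    intro w hw
    simp only [List.mem_cons, List.not_mem_nil, or_false] at hw
    rcases hw with rfl | rfl | rfl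
    · simpa [gword_cons, gword_nil, v', abVal] using ha2
    · simpa [gword_cons, gword_nil, v', abVal] using h3
    · exact h5
  have hK := index_cert [[2, 2], [0, 0, 0], [2, 0, 2, 0, 2, 0, 2, 0, 2, 0]] [] Alt5.facts
    Alt5.n_pos Alt5.node_zero Alt5.rows rfl rfl (by decide +kernel) (by decide +kernel) hv' hrel
    (⊥ : Subgroup P) (by simp)
  rw [Subgroup.relIndex_bot_left] at hK
  have hle : Subgroup.closure {y | ∃ x < 3, v' x = y} ≤
      Subgroup.closure {y | ∃ x < 3, v x = y} := by
    rw [closure_abVal, Subgroup.closure_le]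
    rintro _ (rfl | rfl)
    · exact Subgroup.subset_closure ⟨2, by omega, rfl⟩
    · exact word_mem (by decide)
  refine card_of_index hv hle (index_cert jRels [[2], cW] Janko.facts Janko.n_pos Janko.node_zero
    Janko.rows rfl rfl (by decide +kernel) (by decide +kernel) hv h _ ?_) hK
  intro w hw
  rw [closure_abVal]
  simp only [List.mem_cons, List.not_mem_nil, or_false] at hw
  rcases hw with rfl | rfl
  · rw [gword_cons, gword_nil, mul_one]; exact Subgroup.subset_closure (Or.inl rfl)
  · exact Subgroup.subset_closure (Or.inr rfl)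

theorem card_mathieu (h : ∀ w ∈ mRels, gword v w = 1) :
    Nat.card (Subgroup.closure {y | ∃ x < 3, v x = y}) ≤ 7920 ∧
      Nat.card (Subgroup.closure {y | ∃ x < 3, v x = y}) ≠ 0 := by
  have hp : gword v [2, 0] ^ 11 = 1 := by
    rw [← h [2, 0, 2, 0, 2, 0, 2, 0, 2, 0, 2, 0, 2, 0, 2, 0, 2, 0, 2, 0, 2, 0] (by decide)]
    simp only [gword_cons, gword_nil, mul_one, pow_succ, pow_zero, one_mul, mul_assoc]
  have hk : Nat.card (Subgroup.zpowers (gword v [2, 0])) ≤ 11 ∧
      Nat.card (Subgroup.zpowers (gword v [2, 0])) ≠ 0 := by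
    rw [Nat.card_zpowers]
    exact ⟨Nat.le_of_dvd (by norm_num) (orderOf_dvd_of_pow_eq_one hp),
      (isOfFinOrder_iff_pow_eq_one.2 ⟨11, by norm_num, hp⟩).orderOf_pos.ne'⟩
  refine card_of_index hv (K := Subgroup.zpowers (gword v [2, 0])) (m := 720) (k := 11) ?_
    (index_cert mRels [[2, 0]] Mathieu.facts Mathieu.n_pos Mathieu.node_zero Mathieu.rows rfl rfl
      (by decide +kernel) (by decide +kernel) hv h _ ?_) hk
  · rw [Subgroup.zpowers_le]
    exact word_mem (by decide)
  · intro w hw
    rw [List.mem_singleton.1 hw]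
    exact Subgroup.mem_zpowers _

/-- If `ab` dies, both generators die. -/
theorem mathieu_trivial (h : ∀ w ∈ mRels, gword v w = 1) (hab : gword v [2, 0] = 1) :
    ∀ x < 3, v x = 1 := by
  have hr : ∀ w ∈ mRels ++ [[2, 0]], gword v w = 1 := fun w hw => by
    rcases List.mem_append.1 hw with hw | hw
    · exact h w hw
    · rw [List.mem_singleton.1 hw]; exact hab
  have hk := index_cert (mRels ++ [[2, 0]]) [] MathieuKill.facts MathieuKill.n_pos
    MathieuKill.node_zero MathieuKill.rows rfl rfl (by decide +kernel) (by decide +kernel) hv hr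
    (⊥ : Subgroup P) (by simp)
  rw [Subgroup.relIndex_bot_left] at hk
  intro x hx
  have hmem : v x ∈ Subgroup.closure {y | ∃ x < 3, v x = y} :=
    Subgroup.subset_closure ⟨x, hx, rfl⟩
  rw [Subgroup.eq_bot_of_card_eq _ (le_antisymm hk.1 (Nat.one_le_iff_ne_zero.2 hk.2)),
    Subgroup.mem_bot] at hmem
  exact hmem

end CfsgLib.CosetEnum.ON
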