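import Cfsg.Agent.CosetEnum.ON.SubBounds
import Cfsg.Agent.CosetEnum.Chain
import Cfsg.Agent.JankoOne.Structure

/-!
Generators of `J1` and of `M11` satisfying the two presentations.
-/

set_option autoImplicit false
set_option maxRecDepth 8000

namespace CfsgLib.CosetEnum.ON

open CfsgLib.JankoOne

/-- the matrices of the three letters -/
def jMat : ℕ → JankoOne.M7
  | 0 => JankoOne.mw xB
  | 1 => JankoOne.mw (xB ++ xB)
  | 2 => JankoOne.mw xA
  | _ => JankoOne.one7

/-- the matrix of a word -/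
def jWordMat : List ℕ → JankoOne.M7
  | [] => JankoOne.one7
  | x :: w => JankoOne.mul (jMat x) (jWordMat w)

theorem gwG_append {G : Type*} [Group G] (x y : G) :
    ∀ u w, gwG x y (u ++ w) = gwG x y u * gwG x y w
  | [] , _ => (one_mul _).symm
  | b :: u, w => by
    simp only [List.cons_append, gwG, gwG_append x y u w, mul_assoc]

theorem jB_cube : gw xB * gw (xB ++ xB) = 1 :=
  Subtype.ext <| (Rep.mul (rep_gw xB) (rep_gw (xB ++ xB))).eq rep_one (by decide +kernel)

theorem rep_jVal : ∀ x,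
    Rep ((abVal (gw xA) (gw xB) x : ↥Cfsg.Spor.J1) : GL (Fin 7) (ZMod 11)) (jMat x)
  | 0 => rep_gw _
  | 1 => by
    rw [abVal, inv_eq_of_mul_eq_one_right jB_cube]
    exact rep_gw _
  | 2 => rep_gw _
  | _ + 3 => rep_one

theorem rep_gword : ∀ w,
    Rep ((gword (abVal (gw xA) (gw xB)) w : ↥Cfsg.Spor.J1) : GL (Fin 7) (ZMod 11)) (jWordMat w)
  | [] => rep_one
  | x :: w => by
    rw [gword_cons, Subgroup.coe_mul]
    exact (rep_jVal x).mul (rep_gword w)

theorem janko_relators : ∀ w ∈ jRels, gword (abVal (gw xA) (gw xB)) w = 1 := by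
  have h : jRels.all (fun w => JankoOne.beq (jWordMat w) JankoOne.one7) = true := by decide +kernel
  exact fun w hw => Subtype.ext ((rep_gword w).eq rep_one (List.all_eq_true.1 h w hw))

theorem gwG_mem {G : Type*} [Group G] (x y : G) :
    ∀ w, gwG x y w ∈ Subgroup.closure {x, y}
  | [] => one_mem _
  | b :: w => by
    refine mul_mem ?_ (gwG_mem x y w)
    cases b
    · exact Subgroup.subset_closure (Or.inl rfl)
    · exact Subgroup.subset_closure (Or.inr rfl)

theorem janko_generated : Subgroup.closure {gw xA, gw xB} = (⊤ : Subgroup ↥Cfsg.Spor.J1) := by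
  rw [eq_top_iff]
  refine (Subgroup.closure_closure_coe_preimage
    (k := ({Cfsg.Spor.jankoX, Cfsg.Spor.jankoY} : Set (GL (Fin 7) (ZMod 11))))).ge.trans ?_
  refine (Subgroup.closure_le _).2 ?_
  have hr : ∀ w, Rep ((gwG (gw xA) (gw xB) w : ↥Cfsg.Spor.J1) : GL (Fin 7) (ZMod 11))
      (mwG (mw xA) (mw xB) w) := fun w => by
    rw [coe_gwG]; exact rep_gwG (rep_gw _) (rep_gw _) w
  intro z hz
  rcases hz with hz | hz
  · have e : z = gwG (gw xA) (gw xB) backX :=
      Subtype.ext (hz.trans (rep_X.eq (hr _) (by decide +kernel)))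
    rw [e]; exact gwG_mem _ _ _
  · have e : z = gwG (gw xA) (gw xB) backY :=
      Subtype.ext (hz.trans (rep_Y.eq (hr _) (by decide +kernel)))
    rw [e]; exact gwG_mem _ _ _

/-- the involution of `M11` on eleven points -/
def mPermA : Equiv.Perm (Fin 11) :=
  Equiv.swap 1 9 * Equiv.swap 3 10 * Equiv.swap 4 6 * Equiv.swap 7 8

/-- the element of order 4 of `M11` on eleven points -/
def mPermB : Equiv.Perm (Fin 11) :=
  Equiv.swap 0 7 * Equiv.swap 7 2 * Equiv.swap 2 3 * (Equiv.swap 1 8 * Equiv.swap 8 5 * Equiv.swap 5 4)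

/-- `M11` on eleven points -/
def MPerm : Subgroup (Equiv.Perm (Fin 11)) := Subgroup.closure {mPermA, mPermB}

theorem mPerm_relators : ∀ w ∈ mRels, gword (abVal mPermA mPermB) w = 1 := by
  decide +kernel

theorem mPerm_word_mem (w : List ℕ) : gword (abVal mPermA mPermB) w ∈ MPerm := by
  refine gword_mem _ _ fun x _ => ?_
  rcases x with _ | _ | _ | x
  · exact Subgroup.subset_closure (Or.inr rfl)
  · exact inv_mem (Subgroup.subset_closure (Or.inr rfl))
  · exact Subgroup.subset_closure (Or.inl rfl)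
  · exact one_mem _

/-- one level of the chain from explicit words -/
theorem mLevel (pts : List (Fin 11)) (p : Fin 11) (L : List (List ℕ × Fin 11))
    (h : (L.all fun e => pts.all (fun q => gword (abVal mPermA mPermB) e.1 q == q) &&
      gword (abVal mPermA mPermB) e.1 p == e.2) = true)
    (hnd : (L.map Prod.snd).Nodup) {m : ℕ} (hm : m ≤ Nat.card (pointStab MPerm (p :: pts))) :
    L.length * m ≤ Nat.card (pointStab MPerm pts) := by
  refine le_trans (Nat.mul_le_mul_right m ?_) (card_pointStab_ge le_rfl hm)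
  have hsub : ((L.map Prod.snd).toFinset : Set (Fin 11)) ⊆
      MulAction.orbit (pointStab MPerm pts) p := by
    intro i hi
    obtain ⟨e, he, rfl⟩ := List.mem_map.1 (List.mem_toFinset.1 hi)
    have hc := List.all_eq_true.1 h e he
    rw [Bool.and_eq_true, List.all_eq_true, beq_iff_eq] at hc
    exact ⟨⟨_, mem_pointStab.2 ⟨mPerm_word_mem e.1, fun q hq => eq_of_beq (hc.1 q hq)⟩⟩, hc.2⟩
  refine le_trans ?_ (Set.ncard_le_ncard hsub (Set.toFinite _))
  rw [Set.ncard_coe_finset, List.toFinset_card_of_nodup hnd, List.length_map]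

theorem card_MPerm : Nat.card MPerm = 7920 := by
  have hle : Nat.card MPerm ≤ 7920 := by
    have h := card_mathieu (abVal_inv mPermB (by decide +kernel)) mPerm_relators
    rw [closure_abVal] at h
    exact h.1
  have h3 := mLevel [2, 1, 0] 3 mLev3 (by decide +kernel) (by decide +kernel) (m := 1) Nat.card_pos
  have h2 := mLevel [1, 0] 2 mLev2 (by decide +kernel) (by decide +kernel) h3
  have h1 := mLevel [0] 1 mLev1 (by decide +kernel) (by decide +kernel) h2
  have h0 := mLevel [] 0 mLev0 (by decide +kernel) (by decide +kernel) h1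
  exact le_antisymm hle h0

theorem transitive_MPerm : MulAction.IsPretransitive MPerm (Fin 11) := by
  have h : ∀ i : Fin 11, ∃ e ∈ mLev0, gword (abVal mPermA mPermB) e.1 0 = i := by decide +kernel
  have h0 : ∀ i : Fin 11, ∃ g : MPerm, g • (0 : Fin 11) = i := fun i => by
    obtain ⟨e, -, he⟩ := h i
    exact ⟨⟨_, mPerm_word_mem e.1⟩, he⟩
  refine ⟨fun i j => ?_⟩
  obtain ⟨g, hg⟩ := h0 i
  obtain ⟨k, hk⟩ := h0 j
  exact ⟨k * g⁻¹, by rw [mul_smul, inv_smul_eq_iff.2 hg.symm, hk]⟩

theorem mem_MPerm_A : mPermA ∈ MPerm := Subgroup.subset_closure (Or.inl rfl)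

theorem mem_MPerm_B : mPermB ∈ MPerm := Subgroup.subset_closure (Or.inr rfl)

/-- the generators inside the group -/
def mGenA : ↥MPerm := ⟨mPermA, mem_MPerm_A⟩

/-- the generators inside the group -/
def mGenB : ↥MPerm := ⟨mPermB, mem_MPerm_B⟩

theorem mGen_relators : ∀ w ∈ mRels, gword (abVal mGenA mGenB) w = 1 := fun w hw =>
  Subtype.ext ((map_gword_ab MPerm.subtype mGenA mGenB w).trans (mPerm_relators w hw))

theorem mGen_generated : Subgroup.closure {mGenA, mGenB} = (⊤ : Subgroup ↥MPerm) := by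
  rw [eq_top_iff]
  refine (Subgroup.closure_closure_coe_preimage
    (k := ({mPermA, mPermB} : Set (Equiv.Perm (Fin 11))))).ge.trans (Subgroup.closure_mono ?_)
  intro z hz
  rcases hz with hz | hz
  · exact Or.inl (Subtype.ext hz)
  · exact Or.inr (Subtype.ext hz)

theorem gword_pow_eleven {P : Type*} [Group P] (v : ℕ → P) :
    gword v [2, 0] ^ 11 =
      gword v [2, 0, 2, 0, 2, 0, 2, 0, 2, 0, 2, 0, 2, 0, 2, 0, 2, 0, 2, 0, 2, 0] := by
  simp only [gword_cons, gword_nil, mul_one, pow_succ, pow_zero, one_mul, mul_assoc]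

theorem mGenA_sq : mGenA * mGenA = 1 :=
  Subtype.ext (show mPermA * mPermA = 1 by decide +kernel)

theorem mGens_die {Q : Type*} [Group Q] (φ : ↥MPerm →* Q)
    (h : φ (gword (abVal mGenA mGenB) [2, 0]) = 1) : φ mGenA = 1 ∧ φ mGenB = 1 := by
  have hsq : φ mGenA * φ mGenA = 1 := by rw [← map_mul, mGenA_sq, map_one]
  have hk := mathieu_trivial (v := abVal (φ mGenA) (φ mGenB)) (abVal_inv _ hsq)
    (fun w hw => by rw [← map_gword_ab, mGen_relators w hw, map_one])
    (by rw [← map_gword_ab]; exact h)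
  exact ⟨hk 2 (by omega), hk 0 (by omega)⟩

theorem simple_MPerm : IsSimpleGroup ↥MPerm := by
  have := transitive_MPerm
  have hnt : Nontrivial ↥MPerm := by
    rw [← Finite.one_lt_card_iff_nontrivial, card_MPerm]; norm_num
  have : MulAction.IsPreprimitive MPerm (Fin 11) :=
    MulAction.IsPreprimitive.of_prime_card (by rw [Nat.card_fin]; norm_num)
  refine { eq_bot_or_eq_top_of_normal := fun N hN => ?_ }
  rcases (MulAction.IsBlock.orbit_of_normal (N := N) (0 : Fin 11)).subsingleton_or_eq_univ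
    with hs | hu
  · left
    rw [eq_bot_iff]
    intro n hn
    rw [Subgroup.mem_bot]
    refine Subtype.ext (Equiv.ext fun j => ?_)
    obtain ⟨g, rfl⟩ := MulAction.exists_smul_eq MPerm (0 : Fin 11) j
    have hconj : g⁻¹ * n * g ∈ N := by simpa using hN.conj_mem n hn g⁻¹
    have h0 : (g⁻¹ * n * g) • (0 : Fin 11) = 0 :=
      hs ⟨⟨_, hconj⟩, rfl⟩ (MulAction.mem_orbit_self _)
    rw [mul_smul, mul_smul, inv_smul_eq_iff] at h0
    exact h0
  · right
    have hd : 11 ∣ Nat.card N := by
      have := Nat.card_congr (MulAction.orbitProdStabilizerEquivGroup N (0 : Fin 11))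
      rw [Nat.card_prod, Nat.card_coe_set_eq, hu, Set.ncard_univ, Nat.card_fin] at this
      exact ⟨_, this.symm⟩
    have hq : ¬ 11 ∣ Nat.card (↥MPerm ⧸ N) := by
      rintro ⟨d, hd'⟩
      obtain ⟨k, hk⟩ := hd
      have h := N.card_mul_index
      rw [Subgroup.index_eq_card, hd', hk, card_MPerm] at h
      have : 121 * (k * d) = 7920 := by rw [← h]; ring
      omega
    have hab : QuotientGroup.mk' N (gword (abVal mGenA mGenB) [2, 0]) = 1 := by
      have hp : QuotientGroup.mk' N (gword (abVal mGenA mGenB) [2, 0]) ^ 11 = 1 := by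
        rw [← map_pow, gword_pow_eleven, mGen_relators _ (by decide), map_one]
      rcases (Nat.dvd_prime (by norm_num)).1 (orderOf_dvd_of_pow_eq_one hp) with h1 | h1
      · exact orderOf_eq_one_iff.1 h1
      · have hd' := orderOf_dvd_natCard (QuotientGroup.mk' N (gword (abVal mGenA mGenB) [2, 0]))
        rw [h1] at hd'
        exact absurd hd' hq
    obtain ⟨hA, hB⟩ := mGens_die (QuotientGroup.mk' N) hab
    rw [eq_top_iff, ← mGen_generated, Subgroup.closure_le]
    intro z hz
    rcases hz with rfl | rfl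
    · exact (QuotientGroup.eq_one_iff _).1 hA
    · exact (QuotientGroup.eq_one_iff _).1 hB

end CfsgLib.CosetEnum.ON
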