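import Cfsg.Agent.CosetEnum.ON.Simple
import Cfsg.Agent.CosetEnum.ON.SubModels
import Cfsg.Agent.Eq.Def_Sporadic
import Cfsg.Prelude.Def_Sporadic

/-!
Copies of `J1` and `M11` inside the O'Nan group on 122760 points.
-/

set_option autoImplicit false
set_option maxRecDepth 8000

namespace CfsgLib.CosetEnum.ON

/-- the word for a letter after substituting the words of `a` and `b` -/
def subW (wa wb : List ℕ) : ℕ → List ℕ
  | 0 => wb
  | 1 => wb.reverse.map iv8
  | 2 => wa
  | _ => []

/-- the substituted word fixes the three base points -/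
noncomputable def fixes3 (w : List ℕ) : Bool :=
  Nat.beq (runT Tab.perm.T Tab.perm.L w 0) 0 && Nat.beq (runT Tab.perm.T Tab.perm.L w 12) 12 &&
    Nat.beq (runT Tab.perm.T Tab.perm.L w 139) 139

theorem sigma_eq_one {w : List ℕ} (hw : ∀ x ∈ w, x < 8) (h : fixes3 w = true) :
    gword perm_ok.sigma w = 1 := by
  simp only [fixes3, Bool.and_eq_true] at h
  have hfix : ∀ (p : Fin Tab.perm.n), runT Tab.perm.T Tab.perm.L w p = (p : ℕ) →
      gword perm_ok.sigma w p = p := fun p hp => by
    refine (Equiv.Perm.inv_eq_iff_eq.1 (Fin.ext ?_)).symm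
    rw [perm_ok.gword_inv_apply w hw]
    exact hp
  refine eq_one_of_fix ⟨gword g8 w, pi_gword w hw⟩ (hfix _ ?_) (hfix _ ?_) (hfix _ ?_)
  · exact Nat.eq_of_beq_eq_true h.1.1
  · exact Nat.eq_of_beq_eq_true h.1.2
  · exact Nat.eq_of_beq_eq_true h.2

theorem gword_flatMap {P : Type*} [Group P] (g : ℕ → P) (s : ℕ → List ℕ) :
    ∀ w, gword (fun x => gword g (s x)) w = gword g (w.flatMap s)
  | [] => rfl
  | x :: w => by
    rw [gword_cons, gword_flatMap g s w, List.flatMap_cons, gword, gword, gword, List.map_append,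
      List.prod_append]

theorem relators_on (wa wb : List ℕ) (rels : List (List ℕ)) (ha : ∀ x ∈ wa, x < 8)
    (hb : ∀ x ∈ wb, x < 8) (hr : ∀ w ∈ rels, ∀ x ∈ w, x < 3)
    (h : rels.all (fun w => (w.flatMap (subW wa wb)).all (fun x => Nat.blt x 8) &&
      fixes3 (w.flatMap (subW wa wb))) = true) :
    ∀ w ∈ rels, gword (abVal (gword perm_ok.sigma wa) (gword perm_ok.sigma wb)) w = 1 := by
  intro w hw
  have hc := List.all_eq_true.1 h w hw
  rw [Bool.and_eq_true, List.all_eq_true] at hc
  rw [gword_congr _ (fun x => gword perm_ok.sigma (subW wa wb x)) (fun x hx => ?_), gword_flatMap]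
  · exact sigma_eq_one (fun x hx => by simpa [Nat.blt, Nat.ble_eq] using hc.1 x hx) hc.2
  · have h3 := hr w hw x hx
    interval_cases x
    · rfl
    · show (gword perm_ok.sigma wb)⁻¹ = gword perm_ok.sigma (wb.reverse.map iv8)
      exact (gword_inverse perm_ok.sigma iv8 (perm_ok.sigma_iv_all iv8_out) wb).symm
    · rfl

theorem sigma_mem_range {w : List ℕ} (hw : ∀ x ∈ w, x < 8) :
    gword perm_ok.sigma w ∈ pi.range := ⟨gword g8 w, pi_gword w hw⟩

theorem sigma_ne_one {w : List ℕ} (hw : ∀ x ∈ w, x < 8) (p : Fin Tab.perm.n)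
    (h : Nat.beq (runT Tab.perm.T Tab.perm.L w p) p = false) : gword perm_ok.sigma w ≠ 1 := by
  intro e
  have h2 := perm_ok.gword_inv_apply w hw p
  rw [e, inv_one, Equiv.Perm.one_apply] at h2
  rw [← h2, Nat.beq_refl] at h
  exact Bool.noConfusion h

theorem exists_janko : ∃ K : Subgroup pi.range, Cfsg.IsJ1 K := by
  have := CfsgLib.JankoOne.isSimpleGroup_J1
  exact subgroup_of_pairs 175560 CfsgLib.JankoOne.card_J1 jRels
    (fun _ hv h => card_janko hv h) (by decide) pi.range (gword perm_ok.sigma jA)
    (gword perm_ok.sigma jB) _ _ (sigma_mem_range (by decide)) (sigma_mem_range (by decide))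
    (relators_on jA jB jRels (by decide) (by decide) (by decide +kernel) (by decide +kernel))
    janko_relators janko_generated (sigma_ne_one (by decide) PR (by rw [pt_val]; decide +kernel))

theorem exists_mathieu : ∃ K : Subgroup pi.range, Cfsg.IsM11 K := by
  have := simple_MPerm
  exact subgroup_of_pairs 7920 card_MPerm mRels
    (fun _ hv h => card_mathieu hv h) (by decide) pi.range (gword perm_ok.sigma mA)
    (gword perm_ok.sigma mB) _ _ (sigma_mem_range (by decide)) (sigma_mem_range (by decide))
    (relators_on mA mB mRels (by decide) (by decide) (by decide +kernel) (by decide +kernel))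
    mGen_relators mGen_generated (sigma_ne_one (by decide) PR (by rw [pt_val]; decide +kernel))

theorem isON_range : Cfsg.IsON pi.range := by
  have := simple
  exact ⟨(MonoidHom.ofInjective pi_injective).symm.isSimpleGroup, card_range.1⟩

theorem transitive_range : MulAction.IsPretransitive pi.range (Fin Tab.perm.n) := by
  have h : ∀ i, ∃ g : pi.range, g • P0 = i := fun i => by
    have hi : i ∈ MulAction.orbit pi.range P0 := by rw [orbit_top]; trivial
    exact hi
  refine ⟨fun i j => ?_⟩
  obtain ⟨g, hg⟩ := h i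
  obtain ⟨k, hk⟩ := h j
  exact ⟨k * g⁻¹, by rw [mul_smul, inv_smul_eq_iff.2 hg.symm, hk]⟩

theorem card_stab_range : Nat.card (MulAction.stabilizer pi.range P0) = 3753792 := by
  have h := Nat.card_congr (MulAction.orbitProdStabilizerEquivGroup pi.range P0)
  rw [Nat.card_prod, Nat.card_coe_set_eq, orbit_top, Set.ncard_univ, Nat.card_fin,
    card_range.1] at h
  have h' : 122760 * Nat.card (MulAction.stabilizer pi.range P0) = 460815505920 := h
  omega

end CfsgLib.CosetEnum.ON
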