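import Cfsg.Agent.CosetEnum.ON.SubData
import Cfsg.Agent.CosetEnum.Present
import Mathlib.GroupTheory.Subgroup.Simple

/-!
Recognising a subgroup by pairing its generators with generators of a known simple group.
-/

set_option autoImplicit false

namespace CfsgLib.CosetEnum.ON

/-- formal inverses of the three letters `b, b⁻¹, a` -/
abbrev iv3 : ℕ → ℕ := fun x => bif Nat.blt x 2 then x ^^^ 1 else x

theorem iv3_ge {x : ℕ} (hx : 2 ≤ x) : iv3 x = x := by
  have h : Nat.blt x 2 = false := by
    cases h : Nat.blt x 2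
    · rfl
    · simp [Nat.blt] at h; omega
  simp [iv3, h]

/-- the values of the three letters -/
def abVal {P : Type*} [Group P] (a b : P) : ℕ → P
  | 0 => b
  | 1 => b⁻¹
  | 2 => a
  | _ => 1

theorem abVal_inv {P : Type*} [Group P] {a : P} (b : P) (ha : a * a = 1) :
    ∀ x, abVal a b (iv3 x) = (abVal a b x)⁻¹
  | 0 => rfl
  | 1 => (inv_inv b).symm
  | 2 => by rw [iv3_ge le_rfl]; exact (inv_eq_of_mul_eq_one_right ha).symm
  | n + 3 => by rw [iv3_ge (by omega)]; exact inv_one.symm

theorem map_abVal {P Q : Type*} [Group P] [Group Q] (f : P →* Q) (a b : P) :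
    ∀ x, f (abVal a b x) = abVal (f a) (f b) x
  | 0 => rfl
  | 1 => map_inv f b
  | 2 => rfl
  | _ + 3 => map_one f

theorem map_gword_ab {P Q : Type*} [Group P] [Group Q] (f : P →* Q) (a b : P) (w : List ℕ) :
    f (gword (abVal a b) w) = gword (abVal (f a) (f b)) w := by
  rw [gword_map]
  exact gword_congr _ _ fun x _ => map_abVal f a b x

theorem closure_abVal {P : Type*} [Group P] (a b : P) :
    Subgroup.closure {y | ∃ x < 3, abVal a b x = y} = Subgroup.closure {a, b} := by
  refine le_antisymm ((Subgroup.closure_le _).2 ?_) (Subgroup.closure_mono ?_)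
  · rintro _ ⟨x, hx, rfl⟩
    have ha : a ∈ Subgroup.closure {a, b} := Subgroup.subset_closure (Or.inl rfl)
    have hb : b ∈ Subgroup.closure {a, b} := Subgroup.subset_closure (Or.inr rfl)
    interval_cases x
    exacts [hb, inv_mem hb, ha]
  · rintro _ (rfl | rfl)
    exacts [⟨2, by omega, rfl⟩, ⟨0, by omega, rfl⟩]

/-- If the pairs of generators satisfy relations bounding their group by the order `N` of the
simple group `X`, the first components generate a copy of `X`. -/
theorem subgroup_of_pairs {G X : Type*} [Group G] [Group X] [IsSimpleGroup X] (N : ℕ)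
    (hX : Nat.card X = N) (rels : List (List ℕ))
    (bound : ∀ (v : ℕ → G × X), (∀ x, v (iv3 x) = (v x)⁻¹) → (∀ w ∈ rels, gword v w = 1) →
      Nat.card (Subgroup.closure {y | ∃ x < 3, v x = y}) ≤ N ∧
        Nat.card (Subgroup.closure {y | ∃ x < 3, v x = y}) ≠ 0)
    (hsq : [2, 2] ∈ rels) (H : Subgroup G) (a b : G) (a' b' : X) (ha : a ∈ H) (hb : b ∈ H)
    (h1 : ∀ w ∈ rels, gword (abVal a b) w = 1) (h2 : ∀ w ∈ rels, gword (abVal a' b') w = 1)
    (hgen : Subgroup.closure {a', b'} = ⊤) (hne : a ≠ 1) :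
    ∃ K : Subgroup H, IsSimpleGroup K ∧ Nat.card K = N := by
  have hrel : ∀ w ∈ rels, gword (abVal (a, a') (b, b')) w = 1 := fun w hw =>
    Prod.ext ((map_gword_ab (MonoidHom.fst G X) _ _ w).trans (h1 w hw))
      ((map_gword_ab (MonoidHom.snd G X) _ _ w).trans (h2 w hw))
  have haa : (a, a') * (a, a') = 1 := by
    have h := hrel _ hsq
    simpa [gword_cons, gword_nil, abVal] using h
  have hcard := bound _ (abVal_inv _ haa) hrel
  rw [closure_abVal] at hcard
  set Γ := Subgroup.closure {(a, a'), (b, b')} with hΓ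
  have : Finite Γ := Nat.finite_of_card_ne_zero hcard.2
  let p : Γ →* X := (MonoidHom.snd G X).comp Γ.subtype
  have hsurj : Function.Surjective p := by
    rw [← MonoidHom.range_eq_top, eq_top_iff, ← hgen, Subgroup.closure_le]
    intro z hz
    rcases hz with hz | hz
    · exact ⟨⟨(a, a'), Subgroup.subset_closure (Or.inl rfl)⟩, hz.symm⟩
    · exact ⟨⟨(b, b'), Subgroup.subset_closure (Or.inr rfl)⟩, hz.symm⟩
  have hbij : Function.Bijective p :=
    hsurj.bijective_of_nat_card_le (by rw [hX]; exact hcard.1)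
  let e : Γ ≃* X := MulEquiv.ofBijective p hbij
  have hle : Γ ≤ H.prod ⊤ := by
    rw [hΓ, Subgroup.closure_le]
    rintro _ (rfl | rfl)
    exacts [⟨ha, trivial⟩, ⟨hb, trivial⟩]
  let q0 : X →* G := ((MonoidHom.fst G X).comp Γ.subtype).comp e.symm.toMonoidHom
  have hq0 : ∀ x, q0 x ∈ H := fun x => (Subgroup.mem_prod.1 (hle (e.symm x).2)).1
  let q : X →* H := q0.codRestrict H hq0
  have hqa : q a' ≠ 1 := by
    intro h
    apply hne
    have hea : e ⟨(a, a'), Subgroup.subset_closure (Or.inl rfl)⟩ = a' := rfl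
    have h0 : ((e.symm a').1).1 = (1 : G) := congrArg (fun z : H => (z : G)) h
    rw [← hea, MulEquiv.symm_apply_apply] at h0
    exact h0
  have hinj : Function.Injective q := by
    rw [← MonoidHom.ker_eq_bot_iff]
    rcases q.normal_ker.eq_bot_or_eq_top with h | h
    · exact h
    · exact absurd (q.mem_ker.1 (h ▸ Subgroup.mem_top a')) hqa
  let f : X ≃* q.range := MonoidHom.ofInjective hinj
  have : Nontrivial q.range := f.symm.toEquiv.nontrivial
  exact ⟨q.range, IsSimpleGroup.isSimpleGroup_of_surjective f.toMonoidHom f.surjective,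
    (Nat.card_congr f.toEquiv).symm.trans hX⟩

end CfsgLib.CosetEnum.ON
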